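import Cfsg.Agent.Walter.E8Setup
import Cfsg.Agent.Walter.Count
import Cfsg.Agent.FT.BG1.Coprime
import Cfsg.Agent.FT.BG1.Transfer
import Cfsg.Agent.Known.PSL2Basic
import Cfsg.Agent.S0205

/-!
Groups of Janko-Ree type with field automorphisms: the local data.
-/

set_option autoImplicit false

open Pointwise Cfsg Cfsg.Lib.Solv Cfsg.Lib.FT Cfsg.Lib.Known.GL2

namespace Cfsg.Lib.Walter.JF

universe u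

/-- No field automorphisms occur in `G`. -/
def JRF (G : Type u) [Group G] : Prop :=
  (∀ S : Sylow 2 G, IsMulCommutative ↥(S : Subgroup G)) →
    ∀ (t : G), orderOf t = 2 → ∀ (E : Subgroup G),
    IsInternalDirectProduct (Subgroup.zpowers t) E (Subgroup.centralizer ({t} : Set G)) →
    ∀ {F : Type} [Field F] [Fintype F], Odd (Fintype.card F) → 3 < Fintype.card F →
    ∀ (N : Subgroup ↥E), N.Normal → Nonempty (↥N ≃* PSL2 F) →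
    Subgroup.centralizer (N : Set ↥E) = ⊥ → N = ⊤

variable {G : Type*} [Group G]

/-- `C(t) = ⟨t⟩ × L Φ` with `L ≅ L₂(q)` and `Φ` a group of field automorphisms of odd order;
`S = ⟨t⟩ × W` is a Sylow `2`-subgroup and `W ⟨ρ⟩ ≅ A₄` is centralised by `Φ`. -/
structure J0 (q : ℕ) (t : G) (S : Sylow 2 G) (ρ : G) (W L Φ : Subgroup G) : Prop
    extends E8 t S ρ W where
  WS : W ≤ (S : Subgroup G)
  WL : W ≤ L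
  ρL : ρ ∈ L
  tL : t ∉ L
  Lt : L ≤ 𝐂₁ t
  Φt : Φ ≤ 𝐂₁ t
  normL : 𝐂₁ t ≤ 𝐍 L
  dec : ∀ g ∈ 𝐂₁ t, ∃ l ∈ L, ∃ φ ∈ Φ, g = l * φ ∨ g = t * (l * φ)
  LΦ : L ⊓ Φ = ⊥
  cyc : IsCyclic Φ
  odd : Odd (Nat.card Φ)
  ΦS : Φ ≤ 𝐂 (S : Subgroup G)
  Φρ : Φ ≤ 𝐂₁ ρ
  CW : L ⊓ 𝐂 W ≤ W
  cardL : 2 * Nat.card L = q * (q - 1) * (q + 1)
  qmod : q % 8 = 3 ∨ q % 8 = 5
  root : ∃ q₀, q = q₀ ^ Nat.card Φ
  fld : ∀ φ ∈ Φ, (orderOf φ).Prime → ∃ (F : Type) (_ : Field F) (_ : Fintype F),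
    q = Fintype.card F ^ orderOf φ ∧ Nonempty ((L ⊓ 𝐂₁ φ : Subgroup G) ≃* PSL2 F)

/-- Characteristic three: `U R` is a Borel subgroup of `L`, normalised by `Φ`, and `s ∈ W` inverts
the split torus `R`. -/
structure J3 (q : ℕ) (t s : G) (S : Sylow 2 G) (ρ : G) (W L Φ U R : Subgroup G) : Prop
    extends J0 q t S ρ W L Φ where
  pow : ∃ m, 1 ≤ m ∧ q = 3 ^ (2 * m + 1)
  sW : s ∈ W
  s1 : s ≠ 1
  UL : U ≤ L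
  RL : R ≤ L
  cardU : Nat.card U = q
  U3 : ∀ x ∈ U, x ^ 3 = 1
  Ucomm : ∀ x ∈ U, ∀ y ∈ U, x * y = y * x
  cardR : 2 * Nat.card R + 1 = q
  cycR : IsCyclic R
  sinv : ∀ d ∈ R, s * d * s⁻¹ = d⁻¹
  RU : R ≤ 𝐍 U
  ΦU : Φ ≤ 𝐍 U
  ΦR : Φ ≤ 𝐍 R
  free : ∀ d ∈ R, ∀ x ∈ U, d * x = x * d → d = 1 ∨ x = 1
  ti : ∀ g ∈ L, ∀ x ∈ U, x ≠ 1 → g * x * g⁻¹ ∈ U → g ∈ U ⊔ R
  bruhat : ∀ g ∈ L, g ∉ U ⊔ R → ∃ b ∈ U ⊔ R, ∃ x ∈ U, g = b * s * x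
  cR : ∀ d ∈ R, d ≠ 1 → ∀ g ∈ L, g * d * g⁻¹ ∈ R → g ∈ R ∨ g * s ∈ R
  cΦ : ∀ φ ∈ Φ, φ ∈ 𝐂 R → φ = 1
  u1 : ∃ u ∈ U, u ≠ 1 ∧ Φ ≤ 𝐂₁ u
  tor : ∀ x ∈ L, (orderOf x).Prime → orderOf x ≠ 2 → orderOf x ≠ 3 → ¬ orderOf x ∣ Nat.card R →
    ∃ w ∈ L, orderOf w = 2 ∧ w * x = x * w ∧
      ∀ g ∈ L, g * x = x * g → g * g = 1 → g = 1 ∨ g = w

/-- What the induction tells about the centraliser of a field automorphism `φ` of prime order. -/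
structure MF (q : ℕ) (t : G) (L Φ : Subgroup G) (φ : G) (q₁ : ℕ) : Prop where
  pow : ∃ m, q₁ = 3 ^ (2 * m + 1)
  eq : q = q₁ ^ orderOf φ
  card : Nat.card (𝐂₁ φ) = q₁ ^ 3 * (q₁ ^ 3 + 1) * (q₁ - 1) * Nat.card Φ
  dvd : orderOf φ ∣ q₁ ^ 2 * (q₁ ^ 2 - q₁ + 1)
  inv : ∀ x u : G, x * φ = φ * x → u * φ = φ * u → u ∈ L → orderOf u = 3 →
    (orderOf x).Coprime 6 → t * x * t⁻¹ = x⁻¹ → x * u = u * x → x = 1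

/-- The situation after the induction step. -/
structure J4 (q : ℕ) (t s : G) (S : Sylow 2 G) (ρ : G) (W L Φ U R : Subgroup G) : Prop
    extends J3 q t s S ρ W L Φ U R where
  ne : Φ ≠ ⊥
  mf : ∀ φ ∈ Φ, (orderOf φ).Prime → ∃ q₁, MF q t L Φ φ q₁

/-- The centralisers of the non-trivial elements of the split torus lie in `C(t)`. -/
structure J5 (q : ℕ) (t s : G) (S : Sylow 2 G) (ρ : G) (W L Φ U R : Subgroup G) : Prop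
    extends J4 q t s S ρ W L Φ U R where
  centR : ∀ z ∈ R, z ≠ 1 → 𝐂₁ z ≤ 𝐂₁ t

/-- The Borel subgroup `N(X) = X ⋊ ⟨t⟩ R Φ`, which controls fusion in the Sylow `3`-subgroup `X`. -/
structure J6 (q : ℕ) (t s : G) (S : Sylow 2 G) (ρ : G) (W L Φ U R X : Subgroup G) : Prop
    extends J5 q t s S ρ W L Φ U R where
  syl : IsSylowOf 3 X ⊤
  centX : X ⊓ 𝐂₁ t = U
  sdB : SDProd X (Subgroup.zpowers t ⊔ (R ⊔ Φ)) (𝐍 X)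
  three : ¬ 3 ∣ Nat.card Φ
  fus : ∀ A : Set G, A ⊆ X → ∀ g : G, (∀ a ∈ A, g * a * g⁻¹ ∈ X) →
    ∃ b ∈ 𝐍 X, ∀ a ∈ A, b * a * b⁻¹ = g * a * g⁻¹
  theta : ∀ Θ : Subgroup G, Odd (Nat.card Θ) → ¬ 3 ∣ Nat.card Θ →
    U ⊔ (Subgroup.zpowers t ⊔ (R ⊔ Φ)) ≤ 𝐍 Θ → Θ = ⊥

end Cfsg.Lib.Walter.JF
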